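import Cfsg.Agent.Mult.Slices
import Cfsg.Agent.TitsC.Tabs

set_option autoImplicit false
set_option Elab.async false
set_option maxRecDepth 100000
set_option linter.all false

namespace Cfsg.Agent.TitsC
open Cfsg.Agent.CGT

open Cfsg.Agent.Mult

noncomputable def u3_D : PC := ⟨3, 3, 2, 18,
  [[0, 0x14, 0x10], [0, 0, 0x10], [0, 0, 0]],
  [3, 0, 0],
  [(3, 1, 0x22), (3, 4, 0x28), (3, 0x10, 0x10)], 9, 0x101000200000002⟩
noncomputable def u3_ds : List (List ℕ) := [[0, 16, 11, 6, 0, 7, 10, 14], [0, 2, 0, 2, 0, 11, 5, 2, 8], [2, 5, 5, 7, 0, 11, 0, 14, 10, 6], [5, 7, 2, 0, 16, 7, 0, 10, 14, 16]]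
noncomputable def u3_c : Mult.Cert := ⟨17, 16, [[], [], [1]],
  [],
  [[0xa5, 0, 0x1b], [0, 0xa3, 9], [0, 0, 0xa2]]⟩

end Cfsg.Agent.TitsC
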